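import Mathlib
import Cfsg.Agent.Lib.Helper6.X32.Defs

set_option autoImplicit false

/-!
Shared helpers for the X32 (S6002) packages of helper87.
-/

namespace Cfsg.Agent.Lib.Helper87.X32

open Matrix
open Cfsg.Agent.Lib.Helper6.X32

universe u

theorem one_ne_neg_one {F : Type u} [Field F] (h2 : (2 : F) ≠ 0) : (1 : GL4 F) ≠ -1 := by
  intro h
  have h1 := congrArg (fun g : GL4 F => (g : M4 F) (Sum.inl 0) (Sum.inl 0)) h
  simp only [Units.val_one, Units.val_neg, Matrix.one_apply_eq, Matrix.neg_apply] at h1
  apply h2
  linear_combination h1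

/-- distinct frame elements are not equal up to sign -/
theorem frame_ne {F : Type u} [Field F] {R : Subgroup (GL4 F)} {h : Fin 5 → GL4 F}
    (hR : RFacts R) (hF : Frame R h) (i j : Fin 5) (hij : i ≠ j) :
    h i ≠ h j ∧ h i ≠ -h j := by
  have hanti := hF.anti i j hij
  have hsq := hF.sq j
  constructor
  · intro he
    rw [he, hsq] at hanti
    exact one_ne_neg_one hR.two_ne hanti
  · intro he
    rw [he, neg_mul, mul_neg, hsq, neg_neg] at hanti
    exact one_ne_neg_one hR.two_ne hanti.symm

/-- an element commuting with the frame commutes with `R` -/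
theorem comm_of_frame {F : Type u} [Field F] {R : Subgroup (GL4 F)} {h : Fin 5 → GL4 F}
    (hF : Frame R h) (y : GL4 F) (hy : ∀ i, y * h i = h i * y) : ∀ g ∈ R, y * g = g * y := by
  intro g hg
  rw [← hF.gen] at hg
  have hle : Subgroup.closure (Set.range h) ≤ Subgroup.centralizer ({y} : Set (GL4 F)) := by
    rw [Subgroup.closure_le]
    rintro _ ⟨i, rfl⟩
    rw [SetLike.mem_coe, Subgroup.mem_centralizer_iff]
    intro x hx
    rw [Set.mem_singleton_iff] at hx
    rw [hx]
    exact hy i
  have := hle hg
  rw [Subgroup.mem_centralizer_iff] at this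
  exact this y rfl

/-- an element commuting with the frame is scalar -/
theorem scalar_of_frame {F : Type u} [Field F] {R : Subgroup (GL4 F)} {h : Fin 5 → GL4 F}
    (hR : RFacts R) (hF : Frame R h) (y : GL4 F) (hy : ∀ i, y * h i = h i * y) : IsScalar y := by
  apply hR.commutant
  intro g hg
  have := congrArg Units.val (comm_of_frame hF y hy g hg)
  rw [Units.val_mul, Units.val_mul] at this
  exact this

/-- a scalar unit is central -/
theorem scalar_comm {F : Type u} [Field F] (y : GL4 F) (hy : IsScalar y) (g : GL4 F) :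
    y * g = g * y := by
  obtain ⟨z, hz⟩ := hy
  apply Units.ext
  rw [Units.val_mul, Units.val_mul, hz, Matrix.smul_mul, Matrix.mul_smul, Matrix.one_mul,
    Matrix.mul_one]

end Cfsg.Agent.Lib.Helper87.X32
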