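import Mathlib
import Cfsg.Agent.Lib.Helper6.X32.Defs
import Cfsg.Agent.Lib.Helper87.X32.Basic
import Cfsg.Agent.Lib.Helper13.Symp

set_option autoImplicit false

/-!
Package [EX5B] of S6002 (X32): an element of order 5 in `Sp_4 ∩ N(R)`.
-/

namespace Cfsg.Agent.Lib.Helper87.X32

open Matrix
open Cfsg.Agent.Lib.Helper6.X32

universe u

/-- a scalar matrix in `Sp_4` is `±1` -/
theorem sp_scalar_sq {F : Type u} [Field F] (x : GL4 F) (hx : x ∈ Cfsg.spGL 2 F) (z : F)
    (hz : (x : M4 F) = z • (1 : M4 F)) : z * z = 1 := by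
  have h := hx (Pi.single (Sum.inr 0) 1) (Pi.single (Sum.inl 0) 1)
  have hx' : (Cfsg.glToMat (Fin 2 ⊕ Fin 2) F x : M4 F) = z • (1 : M4 F) := hz
  have e : Cfsg.sympForm 2 F (Pi.single (Sum.inr 0) 1) (Pi.single (Sum.inl 0) 1) = 1 := by
    rw [Cfsg.Agent.Lib.Helper13.sympForm_eq]
    simp [Fin.sum_univ_two, Pi.single_apply]
  have h' : Cfsg.sympForm 2 F ((z • (1 : M4 F)) *ᵥ (Pi.single (Sum.inr 0) 1))
      ((z • (1 : M4 F)) *ᵥ (Pi.single (Sum.inl 0) 1)) =
      Cfsg.sympForm 2 F (Pi.single (Sum.inr 0) 1) (Pi.single (Sum.inl 0) 1) := by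
    rw [← hx']; exact h
  rw [Matrix.smul_mulVec, Matrix.smul_mulVec, Matrix.one_mulVec, Matrix.one_mulVec,
    Cfsg.Agent.Lib.Helper13.sympForm_smul_left, Cfsg.Agent.Lib.Helper13.sympForm_smul_right, e]
    at h'
  linear_combination h'

/-- conjugation by `y` maps `R` into `R` if it does so on the frame -/
theorem conj_mem_of_frame {F : Type u} [Field F] {R : Subgroup (GL4 F)} {h : Fin 5 → GL4 F}
    (hF : Frame R h) (y : GL4 F) (hy : ∀ i, y * h i * y⁻¹ ∈ R) : ∀ g ∈ R, y * g * y⁻¹ ∈ R := by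
  intro g hg
  rw [← hF.gen] at hg
  induction hg using Subgroup.closure_induction with
  | mem x hx =>
    obtain ⟨i, rfl⟩ := hx
    exact hy i
  | one => simp [R.one_mem]
  | mul a b _ _ iha ihb =>
    have : y * (a * b) * y⁻¹ = (y * a * y⁻¹) * (y * b * y⁻¹) := by group
    rw [this]
    exact R.mul_mem iha ihb
  | inv a _ iha =>
    have : y * a⁻¹ * y⁻¹ = (y * a * y⁻¹)⁻¹ := by group
    rw [this]
    exact R.inv_mem iha

/-- [EX5B] -/
theorem pkgEx5B : Cfsg.Agent.Lib.Helper6.X32.PkgEx5B.{u} := by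
  intro F _ R h hR hF hRsp hex
  obtain ⟨y, hysp, hy⟩ := hex
  have hyh : ∀ i, y * h i = h (i + 1) * y := by
    intro i
    rw [← hy i]
    group
  -- y normalizes R
  have hyN : y ∈ Cfsg.Geo.subgroupNormalizer R := by
    show y ∈ Subgroup.normalizer (R : Set (GL4 F))
    rw [Subgroup.mem_normalizer_iff]
    have h1 : ∀ g ∈ R, y * g * y⁻¹ ∈ R :=
      conj_mem_of_frame hF y (fun i => by rw [hy i]; exact hF.mem _)
    have h2 : ∀ g ∈ R, y⁻¹ * g * y⁻¹⁻¹ ∈ R := by
      apply conj_mem_of_frame hF y⁻¹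
      intro i
      have : y⁻¹ * h i * y⁻¹⁻¹ = h (i - 1) := by
        have e := hy (i - 1)
        rw [sub_add_cancel] at e
        rw [← e]
        group
      rw [this]
      exact hF.mem _
    intro g
    constructor
    · exact h1 g
    · intro hg
      have := h2 _ hg
      have e : y⁻¹ * (y * g * y⁻¹) * y⁻¹⁻¹ = g := by group
      rw [e] at this
      exact this
  -- powers
  have hpow : ∀ (n : ℕ) (i : Fin 5), y ^ n * h i = h (i + n • (1 : Fin 5)) * y ^ n := by
    intro n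
    induction n with
    | zero => intro i; simp
    | succ n ih =>
      intro i
      rw [pow_succ, mul_assoc, hyh, ← mul_assoc, ih, mul_assoc]
      congr 2
      rw [succ_nsmul]
      abel
  have h5 : ∀ i, y ^ 5 * h i = h i * y ^ 5 := by
    intro i
    have := hpow 5 i
    have e : 5 • (1 : Fin 5) = 0 := by decide
    rw [e, add_zero] at this
    exact this
  obtain ⟨c, hc⟩ := scalar_of_frame hR hF (y ^ 5) h5
  have hcc : c * c = 1 := sp_scalar_sq (y ^ 5) ((Cfsg.spGL 2 F).pow_mem hysp 5) c hc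
  have hne01 : h 0 ≠ h 1 := (frame_ne hR hF 0 1 (by decide)).1
  rcases mul_self_eq_one_iff.mp hcc with hc1 | hc1
  · refine ⟨y, hysp, hyN, ?_, ?_⟩
    · apply Units.ext
      rw [hc, hc1, one_smul, Units.val_one]
    · rintro rfl
      have := hyh 0
      rw [one_mul, mul_one] at this
      exact hne01 (by simpa using this)
  · have hneg : (-1 : GL4 F) ∈ Cfsg.spGL 2 F := hRsp hR.negOne
    have hnegN : (-1 : GL4 F) ∈ Cfsg.Geo.subgroupNormalizer R :=
      Subgroup.le_normalizer hR.negOne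
    have hy' : -y = (-1 : GL4 F) * y := by rw [neg_one_mul]
    refine ⟨-y, ?_, ?_, ?_, ?_⟩
    · rw [hy']
      exact (Cfsg.spGL 2 F).mul_mem hneg hysp
    · rw [hy']
      exact (Cfsg.Geo.subgroupNormalizer R).mul_mem hnegN hyN
    · have hodd : Odd 5 := by decide
      rw [hodd.neg_pow]
      apply Units.ext
      rw [Units.val_neg, hc, hc1, Units.val_one]
      simp
    · intro h1
      have hy1 : y = -1 := by rw [← h1, neg_neg]
      have := hyh 0
      rw [hy1, neg_one_mul, mul_neg_one, neg_inj] at this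
      exact hne01 (by simpa using this)

end Cfsg.Agent.Lib.Helper87.X32
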