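import Mathlib
import Cfsg.Agent.Lib.Helper6.X32.Defs
import Cfsg.Agent.Lib.Helper87.X32.Basic

set_option autoImplicit false

/-!
Package [NOBIG] of S6002 (X32): no element of prime order `≥ 7` modulo scalars permutes the frame.
-/

namespace Cfsg.Agent.Lib.Helper87.X32

open Matrix
open Cfsg.Agent.Lib.Helper6.X32

universe u

/-- powers of `y` permute the frame by powers of `σ`, up to sign -/
theorem permOf_pow {F : Type u} [Field F] {h : Fin 5 → GL4 F} {y : GL4 F}
    {σ : Equiv.Perm (Fin 5)} (hσ : PermOf h y σ) :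
    ∀ (n : ℕ) (i : Fin 5), y ^ n * h i = h ((σ ^ n) i) * y ^ n ∨
      y ^ n * h i = -(h ((σ ^ n) i) * y ^ n) := by
  have hyh : ∀ i, y * h i = h (σ i) * y ∨ y * h i = -(h (σ i) * y) := by
    intro i
    rcases hσ i with h1 | h1
    · left
      rw [← h1]; group
    · right
      have : h (σ i) = -(y * h i * y⁻¹) := by rw [h1, neg_neg]
      rw [this, neg_mul, neg_neg]; group
  intro n
  induction n with
  | zero => intro i; left; simp
  | succ n ih =>
    intro i
    have e : (σ ^ (n + 1)) i = (σ ^ n) (σ i) := by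
      rw [pow_succ, Equiv.Perm.mul_apply]
    rw [e, pow_succ, mul_assoc]
    rcases hyh i with h1 | h1 <;> rcases ih (σ i) with h2 | h2
    · left
      rw [h1, ← mul_assoc, h2, mul_assoc]
    · right
      rw [h1, ← mul_assoc, h2, neg_mul, mul_assoc]
    · right
      rw [h1, mul_neg, ← mul_assoc, h2, mul_assoc]
    · left
      rw [h1, mul_neg, ← mul_assoc, h2, neg_mul, neg_neg, mul_assoc]

/-- [NOBIG] -/
theorem pkgNoBig : Cfsg.Agent.Lib.Helper6.X32.PkgNoBig.{u} := by
  intro F _ R h hR hF y σ hσ r hr h7 hyr
  have hcen : ∀ g : GL4 F, y ^ r * g = g * y ^ r := scalar_comm (y ^ r) hyr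
  have h11 : (1 : GL4 F) ≠ -1 := one_ne_neg_one hR.two_ne
  -- σ ^ r = 1
  have hσr : σ ^ r = 1 := by
    ext i
    by_contra hne
    have hne' : (σ ^ r) i ≠ i := fun e => hne (by rw [e]; rfl)
    obtain ⟨hn1, hn2⟩ := frame_ne hR hF i ((σ ^ r) i) (fun e => hne' e.symm)
    rcases permOf_pow hσ r i with h1 | h1
    · rw [hcen] at h1
      exact hn1 (mul_right_cancel h1)
    · rw [hcen, ← neg_mul] at h1
      exact hn2 (mul_right_cancel h1)
  have hσ1 : σ = 1 := by
    have hd : orderOf σ ∣ r := orderOf_dvd_of_pow_eq_one hσr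
    rcases (Nat.dvd_prime hr).mp hd with h1 | h1
    · exact orderOf_eq_one_iff.mp h1
    · exfalso
      have hcard : orderOf σ ∣ Fintype.card (Equiv.Perm (Fin 5)) := orderOf_dvd_card
      rw [Fintype.card_perm, Fintype.card_fin, h1] at hcard
      have e120 : Nat.factorial 5 = 8 * 15 := by decide
      rw [e120] at hcard
      rcases (Nat.Prime.dvd_mul hr).mp hcard with h8 | h15
      · have h2 : r ∣ 2 := hr.dvd_of_dvd_pow (show r ∣ 2 ^ 3 by simpa using h8)
        have := Nat.le_of_dvd (by norm_num) h2
        omega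
      · have : r ∣ 3 * 5 := by simpa using h15
        rcases (Nat.Prime.dvd_mul hr).mp this with h3 | h5
        · have := Nat.le_of_dvd (by norm_num) h3
          omega
        · have := Nat.le_of_dvd (by norm_num) h5
          omega
  subst hσ1
  have hodd : Odd r := by
    rcases hr.eq_two_or_odd' with h2 | h2
    · omega
    · exact h2
  -- y commutes with the frame
  have hyh : ∀ i, y * h i = h i * y := by
    intro i
    rcases hσ i with h1 | h1
    · rw [Equiv.Perm.one_apply] at h1
      calc y * h i = y * h i * y⁻¹ * y := by group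
        _ = h i * y := by rw [h1]
    · exfalso
      rw [Equiv.Perm.one_apply] at h1
      have h2 : y * h i = -(h i * y) := by
        calc y * h i = y * h i * y⁻¹ * y := by group
          _ = -(h i * y) := by rw [h1, neg_mul]
      have hpow : ∀ n : ℕ, y ^ n * h i = (-1 : GL4 F) ^ n * (h i * y ^ n) := by
        intro n
        induction n with
        | zero => simp
        | succ n ih =>
          rw [pow_succ, mul_assoc, h2, mul_neg, ← mul_assoc, ih, pow_succ]
          simp only [mul_neg, mul_one, neg_mul, mul_assoc]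
      have h3 := hpow r
      rw [hodd.neg_one_pow, hcen, neg_one_mul] at h3
      -- h i * y^r = -(h i * y^r)
      have h4 : (1 : GL4 F) = -1 := by
        have : (h i * y ^ r) * (h i * y ^ r)⁻¹ = -(h i * y ^ r) * (h i * y ^ r)⁻¹ := by
          rw [← h3]
        rw [mul_inv_cancel, neg_mul, mul_inv_cancel] at this
        exact this
      exact h11 h4
  exact scalar_of_frame hR hF y hyh

end Cfsg.Agent.Lib.Helper87.X32
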