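import Mathlib
import Cfsg.Agent.Lib.Helper6.X32.Defs
import Cfsg.Agent.Lib.Helper87.X32.Basic
import Cfsg.Agent.Lib.Helper87.PGroupFrattini

set_option autoImplicit false

/-!
X32 (S6002) package [SFACTS]: the concrete facts about an extraspecial `2^{1+4}_-` inside `GL_4(F)`.
-/

namespace Cfsg.Agent.Lib.Helper87.X32

open Matrix
open Cfsg.Agent.Lib.Helper6.X32

universe u

theorem pkgSFacts : PkgSFacts.{u} := by
  intro F _ R h2 hex hcard hirr hminus
  obtain ⟨⟨hp, hfr, hcomm⟩, hZ⟩ := hex
  haveI : Finite ↥R := Nat.finite_of_card_ne_zero (by rw [hcard]; norm_num)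
  haveI : Fact (Nat.Prime 2) := ⟨Nat.prime_two⟩
  -- commutant
  have hcommutant : ∀ X : M4 F, (∀ g ∈ R, X * (g : M4 F) = (g : M4 F) * X) →
      ∃ c : F, X = c • (1 : M4 F) := by
    intro X hX
    apply hirr.2
    rintro s ⟨g, hg, rfl⟩
    exact hX g hg
  -- central elements are `±1`
  have KZ : ∀ g ∈ R, (∀ k ∈ R, g * k = k * g) → g = 1 ∨ g = -1 := by
    intro g hg h
    obtain ⟨c, hc⟩ := hcommutant (g : M4 F) (fun k hk => by
      have := congrArg Units.val (h k hk)
      simpa using this)
    have hgc : (⟨g, hg⟩ : ↥R) ∈ Subgroup.center ↥R := by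
      rw [Subgroup.mem_center_iff]
      rintro ⟨k, hk⟩
      apply Subtype.ext
      exact (h k hk).symm
    have hsq : (⟨g, hg⟩ : ↥R) ^ 2 = 1 := by
      have h1 := pow_card_eq_one' (G := Subgroup.center ↥R) (x := ⟨⟨g, hg⟩, hgc⟩)
      rw [hZ] at h1
      have h2 := congrArg Subtype.val h1
      simpa using h2
    have hsq' : g ^ 2 = 1 := by
      have h1 := congrArg Subtype.val hsq
      simpa using h1
    have hM : (g : M4 F) * (g : M4 F) = 1 := by
      have h1 := congrArg Units.val hsq'
      simpa [pow_two] using h1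
    rw [hc] at hM
    have hcc : c * c = 1 := by
      have h1 := congrFun (congrFun hM (Sum.inl 0)) (Sum.inl 0)
      simpa using h1
    have hc1 : c = 1 ∨ c = -1 := by
      have h1 : (c - 1) * (c + 1) = 0 := by linear_combination hcc
      rcases mul_eq_zero.1 h1 with h | h
      · left; linear_combination h
      · right; linear_combination h
    rcases hc1 with rfl | rfl
    · left; apply Units.ext; rw [hc]; simp
    · right; apply Units.ext; rw [hc]; simp
  -- `-1 ∈ R`
  have hneg : (-1 : GL4 F) ∈ R := by
    obtain ⟨z, hz, -⟩ := (Nat.card_eq_two_iff' (1 : Subgroup.center ↥R)).1 hZ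
    have hzc := z.2
    rw [Subgroup.mem_center_iff] at hzc
    have := KZ z.1.1 z.1.2 (by
      intro k hk
      have h1 := congrArg Subtype.val (hzc ⟨k, hk⟩)
      simp only [Subgroup.coe_mul] at h1
      exact h1.symm)
    rcases this with h | h
    · exfalso
      apply hz
      apply Subtype.ext
      apply Subtype.ext
      exact h
    · rw [← h]; exact z.1.2
  have hsqF : ∀ g ∈ R, g * g = 1 ∨ g * g = -1 := by
    intro g hg
    have hmem : (⟨g, hg⟩ : ↥R) ^ 2 ∈ Subgroup.center ↥R := by
      rw [← hfr]; exact Cfsg.Agent.Lib.Helper87.pow_p_mem_frattini hp _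
    have hmemR : g * g ∈ R := mul_mem hg hg
    apply KZ (g * g) hmemR
    intro k hk
    rw [Subgroup.mem_center_iff] at hmem
    have h1 := congrArg Subtype.val (hmem ⟨k, hk⟩)
    simp only [Subgroup.coe_mul, Subgroup.coe_pow, pow_two] at h1
    exact h1.symm
  have hcommF : ∀ g ∈ R, ∀ k ∈ R, g * k = k * g ∨ g * k = -(k * g) := by
    intro g hg k hk
    have hmem : (⟨g, hg⟩ : ↥R) * ⟨k, hk⟩ * (⟨g, hg⟩ : ↥R)⁻¹ * (⟨k, hk⟩ : ↥R)⁻¹
        ∈ Subgroup.center ↥R := by
      rw [← hfr]; exact Cfsg.Agent.Lib.Helper87.comm_mem_frattini hp _ _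
    have hmemR : g * k * g⁻¹ * k⁻¹ ∈ R :=
      mul_mem (mul_mem (mul_mem hg hk) (inv_mem hg)) (inv_mem hk)
    have h3 := KZ (g * k * g⁻¹ * k⁻¹) hmemR (by
      intro x hx
      rw [Subgroup.mem_center_iff] at hmem
      have h1 := congrArg Subtype.val (hmem ⟨x, hx⟩)
      simp only [Subgroup.coe_mul, Subgroup.coe_inv] at h1
      exact h1.symm)
    rcases h3 with h | h
    · left
      rw [mul_inv_eq_one, mul_inv_eq_iff_eq_mul] at h
      exact h
    · right
      rw [mul_inv_eq_iff_eq_mul, mul_inv_eq_iff_eq_mul] at h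
      rw [h, neg_one_mul, neg_mul]
  have hminusF : ∀ a ∈ R, ∀ b ∈ R, a * a = 1 → b * b = 1 → a * b = b * a →
      a = 1 ∨ a = -1 ∨ b = 1 ∨ b = -1 ∨ a = b ∨ a = -b := by
    intro a ha b hb haa hbb hab
    by_contra hcon
    push_neg at hcon
    obtain ⟨ha1, han, hb1, hbn, hab1, habn⟩ := hcon
    classical
    obtain ⟨n', hn'⟩ : ∃ n' : ↥R, (n' : GL4 F) = -1 := ⟨⟨-1, hneg⟩, rfl⟩
    obtain ⟨a', ha'⟩ : ∃ a' : ↥R, (a' : GL4 F) = a := ⟨⟨a, ha⟩, rfl⟩
    obtain ⟨b', hb'⟩ : ∃ b' : ↥R, (b' : GL4 F) = b := ⟨⟨b, hb⟩, rfl⟩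
    have hC : IsMulCommutative (Subgroup.closure ({n', a', b'} : Set ↥R)) := by
      apply Subgroup.isMulCommutative_closure
      intro x hx y hy
      simp only [Set.mem_insert_iff, Set.mem_singleton_iff] at hx hy
      rcases hx with rfl | rfl | rfl <;> rcases hy with rfl | rfl | rfl <;>
        apply Subtype.ext <;> simp [hn', ha', hb', hab]
    have hsqC : ∀ x ∈ Subgroup.closure ({n', a', b'} : Set ↥R), x * x = 1 := by
      intro x hx
      induction hx using Subgroup.closure_induction with
      | mem x hx =>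
        simp only [Set.mem_insert_iff, Set.mem_singleton_iff] at hx
        rcases hx with rfl | rfl | rfl <;> apply Subtype.ext <;>
          simp [hn', ha', hb', haa, hbb]
      | one => simp
      | mul x y hx hy ihx ihy =>
        have hxy : x * y = y * x := by
          have h1 := hC.is_comm.comm ⟨x, hx⟩ ⟨y, hy⟩
          exact congrArg Subtype.val h1
        calc x * y * (x * y) = x * (y * x) * y := by group
          _ = x * (x * y) * y := by rw [hxy]
          _ = (x * x) * (y * y) := by group
          _ = 1 := by rw [ihx, ihy, one_mul]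
      | inv x hx ih =>
        have h1 : x⁻¹ * x⁻¹ = (x * x)⁻¹ := by group
        rw [h1, ih, inv_one]
    have hlt := hminus _ hC hsqC
    have hdvd : Nat.card (Subgroup.closure ({n', a', b'} : Set ↥R)) ∣ 32 := by
      rw [← hcard]; exact Subgroup.card_subgroup_dvd_card _
    have h_1n : (1 : ↥R) ≠ n' := by
      intro h
      have h1 := congrArg Subtype.val h
      simp only [Subgroup.coe_mul, Subgroup.coe_one, hn', ha', hb'] at h1
      exact one_ne_neg_one h2 h1
    have h_1a : (1 : ↥R) ≠ a' := by
      intro h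
      have h1 := congrArg Subtype.val h
      simp only [Subgroup.coe_mul, Subgroup.coe_one, hn', ha', hb'] at h1
      exact ha1 h1.symm
    have h_1b : (1 : ↥R) ≠ b' := by
      intro h
      have h1 := congrArg Subtype.val h
      simp only [Subgroup.coe_mul, Subgroup.coe_one, hn', ha', hb'] at h1
      exact hb1 h1.symm
    have h_1na : (1 : ↥R) ≠ n' * a' := by
      intro h
      have h1 := congrArg Subtype.val h
      simp only [Subgroup.coe_mul, Subgroup.coe_one, hn', ha', hb', neg_one_mul] at h1
      exact han (neg_eq_iff_eq_neg.1 h1.symm)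
    have h_na : n' ≠ a' := by
      intro h
      have h1 := congrArg Subtype.val h
      simp only [Subgroup.coe_mul, Subgroup.coe_one, hn', ha', hb'] at h1
      exact han h1.symm
    have h_nb : n' ≠ b' := by
      intro h
      have h1 := congrArg Subtype.val h
      simp only [Subgroup.coe_mul, Subgroup.coe_one, hn', ha', hb'] at h1
      exact hbn h1.symm
    have h_nna : n' ≠ n' * a' := by
      intro h
      have h1 := congrArg Subtype.val h
      simp only [Subgroup.coe_mul, Subgroup.coe_one, hn', ha', hb', neg_one_mul] at h1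
      exact ha1 (neg_inj.1 h1).symm
    have h_ab : a' ≠ b' := by
      intro h
      have h1 := congrArg Subtype.val h
      simp only [Subgroup.coe_mul, Subgroup.coe_one, hn', ha', hb'] at h1
      exact hab1 h1
    have h_ana : a' ≠ n' * a' := by
      intro h
      have h1 := congrArg Subtype.val h
      simp only [Subgroup.coe_mul, Subgroup.coe_one, hn', ha', hb', neg_one_mul] at h1
      have h3 : a * a = -a * a := congrArg (· * a) h1
      rw [neg_mul, haa] at h3
      exact one_ne_neg_one h2 h3
    have h_bna : b' ≠ n' * a' := by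
      intro h
      have h1 := congrArg Subtype.val h
      simp only [Subgroup.coe_mul, Subgroup.coe_one, hn', ha', hb', neg_one_mul] at h1
      exact habn (neg_eq_iff_eq_neg.1 h1.symm)
    have hcard5 : ({1, n', a', b', n' * a'} : Finset ↥R).card = 5 := by
      rw [Finset.card_insert_of_notMem, Finset.card_insert_of_notMem,
        Finset.card_insert_of_notMem, Finset.card_insert_of_notMem, Finset.card_singleton]
      · simp only [Finset.mem_singleton]; exact h_bna
      · simp only [Finset.mem_insert, Finset.mem_singleton, not_or]; exact ⟨h_ab, h_ana⟩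
      · simp only [Finset.mem_insert, Finset.mem_singleton, not_or]; exact ⟨h_na, h_nb, h_nna⟩
      · simp only [Finset.mem_insert, Finset.mem_singleton, not_or]
        exact ⟨h_1n, h_1a, h_1b, h_1na⟩
    have h5 : 5 ≤ Nat.card (Subgroup.closure ({n', a', b'} : Set ↥R)) := by
      have hnm : n' ∈ Subgroup.closure ({n', a', b'} : Set ↥R) :=
        Subgroup.subset_closure (by simp)
      have ham : a' ∈ Subgroup.closure ({n', a', b'} : Set ↥R) :=
        Subgroup.subset_closure (by simp)
      have hbm : b' ∈ Subgroup.closure ({n', a', b'} : Set ↥R) :=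
        Subgroup.subset_closure (by simp)
      have hsub : (({1, n', a', b', n' * a'} : Finset ↥R) : Set ↥R) ⊆
          (Subgroup.closure ({n', a', b'} : Set ↥R) : Set ↥R) := by
        intro x hx
        simp only [Finset.coe_insert, Finset.coe_singleton, Set.mem_insert_iff,
          Set.mem_singleton_iff] at hx
        rcases hx with rfl | rfl | rfl | rfl | rfl
        · exact one_mem _
        · exact hnm
        · exact ham
        · exact hbm
        · exact mul_mem hnm ham
      have hle := Set.ncard_le_ncard hsub (Set.toFinite _)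
      rw [Set.ncard_coe_finset, hcard5] at hle
      have heq : Nat.card (Subgroup.closure ({n', a', b'} : Set ↥R)) =
          ((Subgroup.closure ({n', a', b'} : Set ↥R) : Set ↥R)).ncard :=
        Nat.card_coe_set_eq _
      rw [heq]; exact hle
    have hno : ∀ m : ℕ, 5 ≤ m → m < 8 → ¬ m ∣ 32 := by
      intro m h1 h2; interval_cases m <;> decide
    exact hno _ h5 (by norm_num at hlt; exact hlt) hdvd
  exact ⟨hcard, h2, hneg, hsqF, hcommF, KZ, hcommutant, hminusF⟩

end Cfsg.Agent.Lib.Helper87.X32
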